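import Cfsg.Agent.H241.NHTools
import Cfsg.Agent.H165.Tri
import Cfsg.Agent.H555.Tri.Gen

/-!
# The transitivity `TriH` for a sporadic group from a list of pairs without `Cond` (helper573)

* `comm_of_card` : a group of order `p ^ a q ^ b`, `a, b ≤ 2`, without possible actions is commutative;
* `triH_of` : the engine.
-/

set_option autoImplicit false

namespace Cfsg.Agent.H573.Tri

open Subgroup Cfsg Cfsg.Agent.H630.NH Cfsg.Agent.H241.NH Cfsg.Agent.H165.TriRow
open Cfsg.Agent.H555.Tri (TriH)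

universe u

/-- a normal Sylow subgroup -/
theorem normal_of_card {K : Type*} [Group K] [Finite K] {p q a b : ℕ} (hp : p.Prime) (hq : q.Prime) (_hpq : p ≠ q)
    (hc : Nat.card K = p ^ a * q ^ b) (h1 : ∀ j, 1 ≤ j → j ≤ b → ¬ p ∣ q ^ j - 1) (P : Sylow p K) :
    (P : Subgroup K).Normal := by
  have hF : Fact p.Prime := ⟨hp⟩
  have hd : Nat.card (Sylow p K) ∣ q ^ b := by
    have h2 : Nat.card (Sylow p K) ∣ (P : Subgroup K).index := P.card_dvd_index
    have h3 : (P : Subgroup K).index ∣ p ^ a * q ^ b := hc ▸ (P : Subgroup K).index_dvd_card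
    have h4 : Nat.Coprime (P : Subgroup K).index (p ^ a) :=
      Nat.Coprime.pow_right a ((Nat.Prime.coprime_iff_not_dvd hp).2 P.not_dvd_index).symm
    exact h2.trans (h4.dvd_of_dvd_mul_left h3)
  obtain ⟨j, hj, hcj⟩ := (Nat.dvd_prime_pow hq).1 hd
  have hm := card_sylow_modEq_one p K
  rw [hcj] at hm
  have hj0 : j = 0 := by
    by_contra h0
    refine h1 j (Nat.one_le_iff_ne_zero.2 h0) hj ?_
    exact (Nat.modEq_iff_dvd' (Nat.one_le_pow _ _ hq.pos)).1 hm.symm
  rw [hj0, pow_zero, Nat.card_eq_one_iff_unique] at hcj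
  have := hcj.1
  exact P.normal_of_subsingleton

theorem comm_of_card {K : Type*} [Group K] [Finite K] {p q a b : ℕ} (hp : p.Prime) (hq : q.Prime) (hpq : p ≠ q)
    (hc : Nat.card K = p ^ a * q ^ b) (ha : a ≤ 2) (hb : b ≤ 2) (h1 : ∀ j, 1 ≤ j → j ≤ b → ¬ p ∣ q ^ j - 1)
    (h2 : ∀ j, 1 ≤ j → j ≤ a → ¬ q ∣ p ^ j - 1) : IsMulCommutative K := by
  have hFp : Fact p.Prime := ⟨hp⟩
  have hFq : Fact q.Prime := ⟨hq⟩
  obtain ⟨P⟩ : Nonempty (Sylow p K) := inferInstance
  obtain ⟨Q⟩ : Nonempty (Sylow q K) := inferInstance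
  have hPn := normal_of_card hp hq hpq hc h1 P
  have hQn := normal_of_card hq hp hpq.symm (a := b) (b := a) (by rw [hc, mul_comm]) h2 Q
  have habel : ∀ {s : ℕ} [Fact s.Prime] (S : Subgroup K), IsPGroup s S → ¬ s ^ 3 ∣ Nat.card K → ∀ x ∈ S, ∀ y ∈ S,
      x * y = y * x := by
    intro s _ S hS h3 x hx y hy
    have hab := ab_of_not_cube (X := K) (Fact.out : s.Prime) h3
    obtain ⟨T, hT⟩ := hS.exists_le_sylow
    exact congrArg Subtype.val ((hab T).is_comm.comm ⟨x, hT hx⟩ ⟨y, hT hy⟩)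
  have hcop : Nat.Coprime p q := (Nat.coprime_primes hp hq).2 hpq
  have hp3 : ¬ p ^ 3 ∣ Nat.card K := by
    intro hd
    rw [hc] at hd
    have h3 := (Nat.Coprime.pow 3 b hcop).dvd_of_dvd_mul_right hd
    have := (Nat.pow_dvd_pow_iff_le_right hp.one_lt).1 h3
    omega
  have hq3 : ¬ q ^ 3 ∣ Nat.card K := by
    intro hd
    rw [hc] at hd
    have h3 := (Nat.Coprime.pow 3 a hcop.symm).dvd_of_dvd_mul_left hd
    have := (Nat.pow_dvd_pow_iff_le_right hq.one_lt).1 h3
    omega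
  have hdis : Disjoint (P : Subgroup K) (Q : Subgroup K) := IsPGroup.disjoint_of_ne p q hpq _ _ P.isPGroup' Q.isPGroup'
  have hPQ : ∀ x ∈ (P : Subgroup K), ∀ y ∈ (Q : Subgroup K), x * y = y * x := fun x hx y hy =>
    commute_of_normal_of_disjoint _ _ hPn hQn hdis x y hx hy
  -- a subgroup containing `P` and `Q` is everything
  have htop : ∀ H : Subgroup K, (P : Subgroup K) ≤ H → (Q : Subgroup K) ≤ H → H = ⊤ := by
    intro H hPH hQH
    rw [← index_eq_one]
    by_contra hne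
    obtain ⟨s, hs, hd⟩ := Nat.exists_prime_and_dvd hne
    have h3 : s ∣ p ^ a * q ^ b := hc ▸ hd.trans H.index_dvd_card
    rcases hs.dvd_mul.1 h3 with h | h
    · have hsp := (Nat.prime_dvd_prime_iff_eq hs hp).1 (hs.dvd_of_dvd_pow h)
      rw [hsp] at hd
      exact P.not_dvd_index (hd.trans (index_dvd_of_le hPH))
    · have hsq := (Nat.prime_dvd_prime_iff_eq hs hq).1 (hs.dvd_of_dvd_pow h)
      rw [hsq] at hd
      exact Q.not_dvd_index (hd.trans (index_dvd_of_le hQH))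
  have hcen : center K = ⊤ := by
    refine htop _ (fun x hx => ?_) (fun y hy => ?_)
    · have h3 := htop (centralizer ({x} : Set K)) (fun y hy => mem_centralizer_singleton_iff.2
        (habel _ P.isPGroup' hp3 y hy x hx)) (fun y hy => mem_centralizer_singleton_iff.2 (hPQ x hx y hy).symm)
      rw [mem_center_iff]
      intro g
      exact mem_centralizer_singleton_iff.1 (h3 ▸ mem_top g)
    · have h3 := htop (centralizer ({y} : Set K)) (fun x hx => mem_centralizer_singleton_iff.2 (hPQ x hx y hy))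
        (fun z hz => mem_centralizer_singleton_iff.2 (habel _ Q.isPGroup' hq3 z hz y hy))
      rw [mem_center_iff]
      intro g
      exact mem_centralizer_singleton_iff.1 (h3 ▸ mem_top g)
  refine ⟨⟨fun x y => ?_⟩⟩
  have h3 : y ∈ center K := by rw [hcen]; trivial
  exact mem_center_iff.1 h3 x

/-- no action between a `q₁`-group and a `q₂`-group of the possible orders -/
def nilp (N p q : ℕ) : Bool :=
  N % p ^ 3 != 0 && N % q ^ 3 != 0 && (q - 1) % p != 0 && (p - 1) % q != 0 &&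
    (N % q ^ 2 != 0 || (q ^ 2 - 1) % p != 0) && (N % p ^ 2 != 0 || (p ^ 2 - 1) % q != 0)

theorem exists_card {K : Type*} [Group K] [Finite K] {p q : ℕ} (hp : p.Prime) (_hq : q.Prime) (_hpq : p ≠ q)
    (h : ∀ s : ℕ, s.Prime → s ∣ Nat.card K → s = p ∨ s = q) : ∃ a b, Nat.card K = p ^ a * q ^ b := by
  obtain ⟨a, m, hm, hc⟩ := Nat.exists_eq_pow_mul_and_not_dvd (n := Nat.card K) Nat.card_pos.ne' p hp.ne_one
  have h2 : ∀ {s : ℕ}, s.Prime → s ∣ m → s = q := by
    intro s hs hd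
    rcases h s hs (hc ▸ Dvd.dvd.mul_left hd _) with rfl | h3
    · exact absurd hd hm
    · exact h3
  have hm0 : m ≠ 0 := by
    rintro rfl
    exact hm (dvd_zero p)
  have h3 := Nat.eq_prime_pow_of_unique_prime_dvd hm0 (p := q) h2
  exact ⟨a, _, by rw [hc]; congr 1⟩

theorem comm_of_nilp {K : Type*} [Group K] [Finite K] {N p q : ℕ} (hp : p.Prime) (hq : q.Prime) (hpq : p ≠ q)
    (hK : Nat.card K ∣ N) (h : ∀ s : ℕ, s.Prime → s ∣ Nat.card K → s = p ∨ s = q) (hn : nilp N p q = true) :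
    IsMulCommutative K := by
  obtain ⟨a, b, hc⟩ := exists_card hp hq hpq h
  simp only [nilp, Bool.and_eq_true, Bool.or_eq_true, bne_iff_ne, ne_eq] at hn
  obtain ⟨⟨⟨⟨⟨h1, h2⟩, h3⟩, h4⟩, h5⟩, h6⟩ := hn
  have ha : a ≤ 2 := by
    by_contra hlt
    exact h1 (Nat.mod_eq_zero_of_dvd (((pow_dvd_pow p (by omega : 3 ≤ a)).trans (Dvd.intro _ hc.symm)).trans hK))
  have hb : b ≤ 2 := by
    by_contra hlt
    exact h2 (Nat.mod_eq_zero_of_dvd (((pow_dvd_pow q (by omega : 3 ≤ b)).trans (Dvd.intro_left _ hc.symm)).trans hK))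
  refine comm_of_card hp hq hpq hc ha hb ?_ ?_
  · intro j hj hjb hd
    have hj2 : j = 1 ∨ j = 2 := by omega
    rcases hj2 with rfl | rfl
    · rw [pow_one] at hd
      exact h3 (Nat.mod_eq_zero_of_dvd hd)
    · rcases h5 with h5 | h5
      · exact h5 (Nat.mod_eq_zero_of_dvd (((pow_dvd_pow q hjb).trans (Dvd.intro_left _ hc.symm)).trans hK))
      · exact h5 (Nat.mod_eq_zero_of_dvd hd)
  · intro j hj hja hd
    have hj2 : j = 1 ∨ j = 2 := by omega
    rcases hj2 with rfl | rfl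
    · rw [pow_one] at hd
      exact h4 (Nat.mod_eq_zero_of_dvd hd)
    · rcases h6 with h6 | h6
      · exact h6 (Nat.mod_eq_zero_of_dvd (((pow_dvd_pow p hja).trans (Dvd.intro _ hc.symm)).trans hK))
      · exact h6 (Nat.mod_eq_zero_of_dvd hd)

/-- the check -/
def okTri (N : ℕ) (L B : List ℕ) (P : List (ℕ × ℕ)) : Bool :=
  L.all fun r => L.all fun a => L.all fun b => r == a || r == b || a == b || B.contains r || B.contains a || B.contains b ||
    P.contains (r, a) || P.contains (a, r) || P.contains (r, b) || P.contains (b, r) || nilp N a b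

/-- **The engine.** -/
theorem triH_of {X : Type u} [Group X] [Finite X] (N k : ℕ) (hN : Nat.card X = N) (L B : List ℕ) (P : List (ℕ × ℕ))
    (hLp : ∀ q ∈ L, q.Prime) (hk : (2 * L.prod) ^ k % N = 0) (hB : ∀ p ∈ B, ∀ q ∈ L, p ≠ q → NC p q X)
    (hP : ∀ a ∈ P, NC a.1 a.2 X) (hT : okTri N L B P = true) : TriH X := by
  intro r q₁ q₂ hr h₁ h₂ hr2 h12 h22 hr1 hr2' hne hrd h1d h2d hc1 hc2 ⟨x, K, hx, hKx, hKp, hi1, hi2⟩
  have hrL := mem_of_dvd hLp hk hr hr2 (hN ▸ hrd)
  have h1L := mem_of_dvd hLp hk h₁ h12 (hN ▸ h1d)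
  have h2L := mem_of_dvd hLp hk h₂ h22 (hN ▸ h2d)
  have hok := List.all_eq_true.1 (List.all_eq_true.1 (List.all_eq_true.1 hT r hrL) q₁ h1L) q₂ h2L
  simp only [Bool.or_eq_true, beq_iff_eq, List.contains_iff_mem] at hok
  rcases hok with (((((((((h | h) | h) | h) | h) | h) | h) | h) | h) | h) | h
  · exact absurd h hr1
  · exact absurd h hr2'
  · exact absurd h hne
  · exact absurd hc1 (hB r h q₁ h1L hr1)
  · exact absurd hc1 (hB q₁ h r hrL hr1.symm).symm
  · exact absurd hc2 (hB q₂ h r hrL hr2'.symm).symm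
  · exact absurd hc1 (hP _ h)
  · exact absurd hc1 (hP _ h).symm
  · exact absurd hc2 (hP _ h)
  · exact absurd hc2 (hP _ h).symm
  · have hcm := comm_of_nilp h₁ h₂ hne (hN ▸ card_subgroup_dvd_card K) hKp h
    exact cond_of_torus h₁ h₂ K hcm hi1 hi2

end Cfsg.Agent.H573.Tri
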